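import Cfsg.Agent.H57.TTPar
import Cfsg.Agent.H57.TTOut
import Cfsg.Agent.H488.ThreeHalf
import Cfsg.Agent.H163.PG.Few
import Cfsg.Agent.S0249
import Cfsg.Agent.S0243
import Cfsg.Agent.S0265
import Cfsg.Agent.S0813

/-!
# S3727, the almost simple case: generalities (helper175)
-/

set_option autoImplicit false

namespace Cfsg.Agent.H175.TTPsl3AS

open MulAction Cfsg.Agent.H384.TwoTrans

universe u v

/-! ### Numbers -/

theorem prod_eq {k : ℕ} (hq : 1 < 2 ^ k) : (∏ i : Fin 3, ((2 ^ k) ^ 3 - (2 ^ k) ^ (i : ℕ))) =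
    (2 ^ k - 1) * (2 ^ (3 * k) * ((2 ^ k) ^ 2 - 1) * ((2 ^ k) ^ 3 - 1)) := by
  rw [Fin.prod_univ_three]
  have e2 : 2 ^ (3 * k) = (2 ^ k) ^ 3 := by rw [← pow_mul, mul_comm]
  rw [e2]
  set q := 2 ^ k with hqdef
  obtain ⟨r, hr⟩ : ∃ r, q = r + 1 := ⟨q - 1, by omega⟩
  rw [hr]
  have a1 : (r + 1) ^ 3 - (r + 1) ^ ((0 : Fin 3) : ℕ) = (r + 1) ^ 3 - 1 := rfl
  have a2 : (r + 1) ^ 3 - (r + 1) ^ ((1 : Fin 3) : ℕ) = (r + 1) * ((r + 1) ^ 2 - 1) := by
    rw [Nat.mul_sub, ← pow_succ', mul_one]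
    rw [show ((1 : Fin 3) : ℕ) = 1 from rfl, pow_one]
  have a3 : (r + 1) ^ 3 - (r + 1) ^ ((2 : Fin 3) : ℕ) = (r + 1) ^ 2 * r := by
    have : (r + 1) ^ 3 = (r + 1) ^ 2 * r + (r + 1) ^ 2 := by ring
    rw [this]
    exact Nat.add_sub_cancel _ _
  rw [a1, a2, a3, Nat.add_sub_cancel]
  ring

/-- the order of `PSL₃(2^k)` -/
theorem card_psl3 {F : Type*} [Field F] [Fintype F] {k : ℕ} (hF : Fintype.card F = 2 ^ k) :
    Nat.gcd 3 (2 ^ k - 1) * Nat.card (Matrix.ProjectiveSpecialLinearGroup (Fin 3) F) =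
      2 ^ (3 * k) * ((2 ^ k) ^ 2 - 1) * ((2 ^ k) ^ 3 - 1) := by
  have h := Cfsg.Agent.S0243.result hF 3 (by norm_num)
  have hq : 1 < 2 ^ k := by rw [← hF]; exact Fintype.one_lt_card
  rw [prod_eq hq] at h
  have h2 : 0 < 2 ^ k - 1 := by omega
  apply Nat.eq_of_mul_eq_mul_left h2
  rw [← h]
  ring

theorem card_pgl3 {F : Type*} [Field F] [Fintype F] {k : ℕ} (hF : Fintype.card F = 2 ^ k) :
    Nat.card (Matrix.ProjGenLinGroup (Fin 3) F) =
      2 ^ (3 * k) * ((2 ^ k) ^ 2 - 1) * ((2 ^ k) ^ 3 - 1) := by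
  have h := Cfsg.Agent.S0242.result hF 3 (by norm_num)
  have hq : 1 < 2 ^ k := by rw [← hF]; exact Fintype.one_lt_card
  rw [prod_eq hq, ← Cfsg.Agent.S0265.result] at h
  exact Nat.eq_of_mul_eq_mul_left (by omega) h

theorem gcd_three {x : ℕ} : Nat.gcd 3 x = 1 ∨ Nat.gcd 3 x = 3 :=
  (Nat.dvd_prime Nat.prime_three).1 (Nat.gcd_dvd_left 3 x)

variable {F : Type} [Field F] [Fintype F] {k : ℕ} {M : Type*} [Group M]

theorem card_pos' (hF : Fintype.card F = 2 ^ k) (e : M ≃* Matrix.ProjectiveSpecialLinearGroup (Fin 3) F) :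
    0 < Nat.card M := by
  rw [Nat.card_congr e.toEquiv]; exact Nat.card_pos

theorem card_M (hF : Fintype.card F = 2 ^ k) (e : M ≃* Matrix.ProjectiveSpecialLinearGroup (Fin 3) F) :
    Nat.gcd 3 (2 ^ k - 1) * Nat.card M = 2 ^ (3 * k) * ((2 ^ k) ^ 2 - 1) * ((2 ^ k) ^ 3 - 1) := by
  rw [Nat.card_congr e.toEquiv]; exact card_psl3 hF

theorem seven_dvd (hk : 1 ≤ k) (hF : Fintype.card F = 2 ^ k)
    (e : M ≃* Matrix.ProjectiveSpecialLinearGroup (Fin 3) F) : 7 ∣ Nat.card M := by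
  have h := card_M hF e
  have h1 : 7 ∣ (2 ^ k) ^ 3 - 1 := by
    rw [← pow_mul, mul_comm, pow_mul]
    have := Nat.sub_dvd_pow_sub_pow 8 1 k
    rwa [one_pow] at this
  have h2 : 7 ∣ Nat.gcd 3 (2 ^ k - 1) * Nat.card M := by rw [h]; exact h1.mul_left _
  rcases (Nat.Prime.dvd_mul (by norm_num)).1 h2 with h3 | h3
  · rcases gcd_three (x := 2 ^ k - 1) with h4 | h4 <;> rw [h4] at h3 <;> omega
  · exact h3

theorem two_pow_dvd (hF : Fintype.card F = 2 ^ k)
    (e : M ≃* Matrix.ProjectiveSpecialLinearGroup (Fin 3) F) : 2 ^ (3 * k) ∣ Nat.card M := by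
  have h := card_M hF e
  have h2 : 2 ^ (3 * k) ∣ Nat.gcd 3 (2 ^ k - 1) * Nat.card M := by rw [h, mul_assoc]; exact dvd_mul_right _ _
  refine Nat.Coprime.dvd_of_dvd_mul_left ?_ h2
  rcases gcd_three (x := 2 ^ k - 1) with h4 | h4 <;> rw [h4]
  · exact Nat.coprime_one_right _
  · exact Nat.Coprime.pow_left _ (by norm_num)

theorem simple_M (e : M ≃* Matrix.ProjectiveSpecialLinearGroup (Fin 3) F) : IsSimpleGroup M := by
  have := Cfsg.Agent.S0249.result (F := F) 3 le_rfl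
  exact e.isSimpleGroup

theorem not_isSolvable_M (hk : 1 ≤ k) (hF : Fintype.card F = 2 ^ k)
    (e : M ≃* Matrix.ProjectiveSpecialLinearGroup (Fin 3) F) : ¬ Group.IsSolvable M := by
  intro hs
  have := simple_M e
  have hfin : Finite M := Nat.finite_of_card_ne_zero (card_pos' hF e).ne'
  have hcomm := IsSimpleGroup.comm_iff_isSolvable.2 hs
  letI : CommGroup M := { (inferInstance : Group M) with mul_comm := hcomm }
  have hp : (Nat.card M).Prime := IsSimpleGroup.prime_card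
  have h7 := seven_dvd hk hF e
  have h8 := two_pow_dvd hF e
  have h9 : 2 ∣ Nat.card M := (dvd_pow_self 2 (by omega)).trans h8
  rw [Nat.prime_dvd_prime_iff_eq (by norm_num) hp] at h7 h9
  omega

/-! ### Groups -/

/-- a normal simple subgroup and a self-centralising solvable normal subgroup -/
theorem no_V {X : Type*} [Group X] (S M V : Subgroup X) (hMS : M ≤ S) (hVS : V ≤ S)
    (hMn : ∀ g ∈ S, ∀ x ∈ M, g * x * g⁻¹ ∈ M) (hVn : ∀ g ∈ S, ∀ x ∈ V, g * x * g⁻¹ ∈ V)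
    (hs : IsSimpleGroup M) (hsol : ¬ Group.IsSolvable M) (hV : Group.IsSolvable V)
    (hc : Subgroup.centralizer (V : Set X) ≤ V) : False := by
  have hMV : ¬ M ≤ V := by
    intro h
    exact hsol (Group.isSolvable_of_isSolvable_injective (Subgroup.inclusion_injective h))
  have hn : (V.subgroupOf M).Normal := ⟨fun x hx g => hVn g (hMS g.2) x hx⟩
  rcases hn.eq_bot_or_eq_top with h | h
  · apply hMV
    refine le_trans ?_ hc
    intro m hm
    rw [Subgroup.mem_centralizer_iff]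
    intro v hv
    have h1 : m * v * m⁻¹ * v⁻¹ ∈ M := by
      have := M.mul_mem hm (hMn v (hVS hv) _ (M.inv_mem hm))
      rwa [← mul_assoc, ← mul_assoc] at this
    have h2 : m * v * m⁻¹ * v⁻¹ ∈ V := V.mul_mem (hVn m (hMS hm) v hv) (V.inv_mem hv)
    have h3 : (⟨_, h1⟩ : M) ∈ V.subgroupOf M := h2
    rw [h, Subgroup.mem_bot] at h3
    have h4 : m * v * m⁻¹ * v⁻¹ = 1 := congrArg Subtype.val h3
    have h5 := mul_inv_eq_one.1 h4
    exact (mul_inv_eq_iff_eq_mul.1 h5).symm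
  · apply hMV
    rwa [Subgroup.subgroupOf_eq_top] at h

/-- the normal simple subgroups of the point stabilizer lie in the socle -/
theorem le_T {G : Type u} {Ω : Type v} [Group G] [MulAction G Ω] {T : Subgroup G} (A : AS G Ω T)
    (hO : Group.IsSolvable (Cfsg.Out T)) {N : Subgroup G}
    (hs : IsSimpleGroup N) (hsol : ¬ Group.IsSolvable N) : N ≤ T := by
  have := A.normal
  have := A.finG
  have := A.simple
  have hn : (T.subgroupOf N).Normal := inferInstance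
  rcases hn.eq_bot_or_eq_top with h | h
  · exfalso
    apply hsol
    let f := Cfsg.Agent.H163.PG.toOut T (MulEquiv.refl _)
    have hf : f.ker = T := Cfsg.Agent.H163.PG.ker_toOut T (MulEquiv.refl _) A.cent
    refine Group.isSolvable_of_isSolvable_injective (f := f.comp N.subtype) ?_
    rw [← MonoidHom.ker_eq_bot_iff, ← MonoidHom.comap_ker, hf]
    exact h
  · rwa [Subgroup.subgroupOf_eq_top] at h

section act

variable {G : Type u} {Ω : Type v} [Group G] [MulAction G Ω]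

theorem card_orbit_smul (N : Subgroup G) {g : G} (hg : ∀ x ∈ N, g * x * g⁻¹ ∈ N) (hg' : ∀ x ∈ N, g⁻¹ * x * g ∈ N)
    (b : Ω) : Nat.card (orbit N (g • b)) = Nat.card (orbit N b) := by
  have h1 : (orbit N (g • b) : Set Ω) = (fun x => g • x) '' (orbit N b) := by
    ext x
    constructor
    · rintro ⟨n, rfl⟩
      refine ⟨g⁻¹ • ((n : G) • g • b), ⟨⟨_, hg' n n.2⟩, ?_⟩, smul_inv_smul _ _⟩
      show (g⁻¹ * (n : G) * g) • b = _
      rw [mul_smul, mul_smul]
    · rintro ⟨_, ⟨n, rfl⟩, rfl⟩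
      refine ⟨⟨_, hg n n.2⟩, ?_⟩
      show (g * (n : G) * g⁻¹) • (g • b) = g • ((n : G) • b)
      rw [mul_smul, mul_smul, inv_smul_smul]
  rw [h1, Nat.card_image_of_injective (MulAction.injective g)]

theorem half [Finite Ω] (two : ∀ a b c d : Ω, a ≠ b → c ≠ d → ∃ g : G, g • a = c ∧ g • b = d) {a b₀ : Ω}
    (hb₀ : b₀ ≠ a) {N : Subgroup G} (hNle : N ≤ stabilizer G a)
    (hNn : ∀ g ∈ stabilizer G a, ∀ x ∈ N, g * x * g⁻¹ ∈ N) :
    (∀ b, b ≠ a → Nat.card (orbit N b) = Nat.card (orbit N b₀)) ∧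
      Nat.card (orbit N b₀) ∣ Nat.card Ω - 1 := by
  have h1 : ∀ b, b ≠ a → Nat.card (orbit N b) = Nat.card (orbit N b₀) := by
    intro b hb
    obtain ⟨g, hga, hgb⟩ := two a b₀ a b hb₀.symm hb.symm
    rw [← hgb]
    refine card_orbit_smul N (hNn g hga) (fun x hx => ?_) b₀
    have := hNn g⁻¹ ((stabilizer G a).inv_mem hga) x hx
    rwa [inv_inv] at this
  refine ⟨h1, ?_⟩
  have h2 := Cfsg.Agent.H488.ThreeHalf.dvd_ncard_of_orbits N ({a}ᶜ : Set Ω) (l := Nat.card (orbit N b₀)) ?_ ?_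
  · rwa [Set.ncard_compl, Set.ncard_singleton] at h2
  · intro g hg x hx hx'
    apply hx
    have h3 : g • a = a := hNle hg
    have h4 : g • x = a := hx'
    exact smul_left_cancel g (h4.trans h3.symm)
  · intro x hx
    exact h1 x hx

theorem card_orbit_dvd_card (N : Subgroup G) [Finite N] (b : Ω) : Nat.card (orbit N b) ∣ Nat.card N := by
  rw [Nat.card_coe_set_eq, ← index_stabilizer]
  exact Subgroup.index_dvd_card _

/-- a simple group of order divisible by 7 has no orbits of length 2, ..., 6 -/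
theorem seven_le [Finite Ω] {N : Type*} [Group N] [MulAction N Ω] [IsSimpleGroup N] (h7 : 7 ∣ Nat.card N) (b : Ω)
    (h : Nat.card (orbit N b) ≠ 1) : 7 ≤ Nat.card (orbit N b) := by
  classical
  have : Fintype (orbit N b) := Fintype.ofFinite _
  let φ := toPermHom N (orbit N b)
  have hinj : Function.Injective φ := by
    rw [← MonoidHom.ker_eq_bot_iff]
    rcases (inferInstance : φ.ker.Normal).eq_bot_or_eq_top with h1 | h1
    · exact h1
    · exfalso
      apply h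
      rw [Nat.card_eq_one_iff_unique]
      refine ⟨⟨fun x y => ?_⟩, ⟨⟨b, mem_orbit_self b⟩⟩⟩
      have key : ∀ x : orbit N b, x = ⟨b, mem_orbit_self b⟩ := by
        rintro ⟨_, ⟨n, rfl⟩⟩
        have h2 : n ∈ φ.ker := by rw [h1]; trivial
        have h3 := DFunLike.congr_fun (MonoidHom.mem_ker.1 h2) (⟨b, mem_orbit_self b⟩ : orbit N b)
        exact h3
      rw [key x, key y]
  have h1 : Nat.card N ∣ Nat.card (Equiv.Perm (orbit N b)) := Subgroup.card_dvd_of_injective φ hinj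
  rw [Nat.card_eq_fintype_card (α := Equiv.Perm _), Fintype.card_perm] at h1
  have h2 := (Nat.Prime.dvd_factorial (by norm_num)).1 (h7.trans h1)
  rwa [Nat.card_eq_fintype_card]

end act

end Cfsg.Agent.H175.TTPsl3AS
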