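import Cfsg.Agent.H175.TTPsl3Core
import Cfsg.Agent.H175.Psl3Index

/-!
# S3727, the almost simple case: the context (helper175)
-/

set_option autoImplicit false

namespace Cfsg.Agent.H175.TTPsl3AS

open MulAction Cfsg.Agent.H384.TwoTrans

universe u v

/-- the hypotheses of S3727 in the almost simple case -/
structure Ctx (G : Type u) (Ω : Type v) [Group G] [MulAction G Ω] (T : Subgroup G) (a : Ω) (N : Subgroup G)
    (F : Type) [Field F] [Fintype F] (k : ℕ) : Prop where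
  A : AS G Ω T
  out : Group.IsSolvable (Cfsg.Out T)
  ev : Even (Nat.card Ω)
  le : N ≤ stabilizer G a
  nrm : ∀ g ∈ stabilizer G a, ∀ x ∈ N, g * x * g⁻¹ ∈ N
  hk : 1 ≤ k
  hF : Fintype.card F = 2 ^ k
  iso : Nonempty (N ≃* Matrix.ProjectiveSpecialLinearGroup (Fin 3) F)

variable {G : Type u} {Ω : Type v} [Group G] [MulAction G Ω] {T : Subgroup G} {a : Ω} {N : Subgroup G}
  {F : Type} [Field F] [Fintype F] {k : ℕ}

namespace Ctx

theorem simple (C : Ctx G Ω T a N F k) : IsSimpleGroup N := by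
  obtain ⟨e⟩ := C.iso
  exact simple_M e

theorem nsol (C : Ctx G Ω T a N F k) : ¬ Group.IsSolvable N := by
  obtain ⟨e⟩ := C.iso
  exact not_isSolvable_M C.hk C.hF e

theorem leT (C : Ctx G Ω T a N F k) : N ≤ T := le_T C.A C.out C.simple C.nsol

theorem one_le_q (C : Ctx G Ω T a N F k) : 2 ≤ 2 ^ k := by
  calc 2 = 2 ^ 1 := rfl
    _ ≤ 2 ^ k := Nat.pow_le_pow_right (by norm_num) C.hk

theorem charTwo (C : Ctx G Ω T a N F k) : CharP F 2 := by
  obtain ⟨p, hp⟩ := CharP.exists F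
  obtain ⟨n, hpp, hn⟩ := FiniteField.card F p
  have h1 : p ∣ 2 ^ k := by rw [← C.hF, hn]; exact dvd_pow_self p n.ne_zero
  have h2 : p = 2 := (Nat.prime_dvd_prime_iff_eq hpp Nat.prime_two).1 (hpp.dvd_of_dvd_pow h1)
  subst h2
  exact hp

theorem exists_ne (C : Ctx G Ω T a N F k) : ∃ b : Ω, b ≠ a := C.A.two_ne a

/-- the orbits of `N` -/
theorem orbits (C : Ctx G Ω T a N F k) : ∃ f : ℕ, (∀ b, b ≠ a → Nat.card (orbit N b) = f) ∧ f ∣ Nat.card Ω - 1 ∧
    f ∣ Nat.card N ∧ 7 ≤ f ∧ (2 ^ k) ^ 2 + 2 ^ k + 1 ∣ f := by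
  have := C.A.finG
  have := C.A.finΩ
  have := C.A.faithful
  have hs := C.simple
  have hch := C.charTwo
  obtain ⟨e⟩ := C.iso
  obtain ⟨b₀, hb₀⟩ := C.exists_ne
  obtain ⟨h1, h2⟩ := half C.A.two' hb₀ C.le C.nrm
  have hne : Nat.card (orbit N b₀) ≠ 1 := by
    intro h
    -- `N` acts trivially
    have h3 : ∀ x ∈ N, x = 1 := by
      intro x hx
      apply FaithfulSMul.eq_of_smul_eq_smul (α := Ω)
      intro b
      rw [one_smul]
      by_cases hb : b = a
      · rw [hb]; exact C.le hx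
      · have h4 := h1 b hb
        rw [h, Nat.card_eq_one_iff_unique] at h4
        have := h4.1
        have h5 := Subsingleton.elim (⟨x • b, ⟨x, hx⟩, rfl⟩ : orbit N b) ⟨b, mem_orbit_self b⟩
        exact congrArg Subtype.val h5
    have h4 : N = ⊥ := by rw [eq_bot_iff]; exact fun x hx => h3 x hx
    have h5 : Nontrivial N := inferInstance
    rw [Subgroup.nontrivial_iff_ne_bot] at h5
    exact h5 h4
  have h7 : 7 ∣ Nat.card N := seven_dvd C.hk C.hF e
  refine ⟨_, h1, h2, card_orbit_dvd_card N b₀, seven_le h7 b₀ hne, ?_⟩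
  have hodd : ¬ 2 ∣ Nat.card (orbit N b₀) := by
    intro h
    have h3 := h.trans h2
    have h4 := C.ev.two_dvd
    have h5 := C.A.five_le
    omega
  have h3 := Cfsg.Agent.H175.Psl3Aff.dvd_orbit e b₀ hne hodd
  rwa [Nat.card_eq_fintype_card, C.hF] at h3

theorem dvd (C : Ctx G Ω T a N F k) : (2 ^ k) ^ 2 + 2 ^ k + 1 ∣ Nat.card Ω - 1 := by
  obtain ⟨f, -, h1, -, -, h2⟩ := C.orbits
  exact h2.trans h1

/-! ### The point stabilizer of `T` -/

theorem le' (C : Ctx G Ω T a N F k) : N.subgroupOf T ≤ stabilizer T a := by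
  intro x hx
  have h1 : (x : G) ∈ N := hx
  exact C.le h1

theorem nrm' (C : Ctx G Ω T a N F k) : ∀ g ∈ stabilizer T a, ∀ x ∈ N.subgroupOf T, g * x * g⁻¹ ∈ N.subgroupOf T := by
  intro g hg x hx
  exact C.nrm g hg x hx

/-- `N` in `T` -/
theorem iso' (C : Ctx G Ω T a N F k) :
    Nonempty (N.subgroupOf T ≃* Matrix.ProjectiveSpecialLinearGroup (Fin 3) F) := by
  obtain ⟨e⟩ := C.iso
  exact ⟨(Subgroup.subgroupOfEquivOfLe C.leT).trans e⟩

theorem simple' (C : Ctx G Ω T a N F k) : IsSimpleGroup (N.subgroupOf T) := by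
  obtain ⟨e⟩ := C.iso'
  exact simple_M e

theorem nsol' (C : Ctx G Ω T a N F k) : ¬ Group.IsSolvable (N.subgroupOf T) := by
  obtain ⟨e⟩ := C.iso'
  exact not_isSolvable_M C.hk C.hF e

/-- no self-centralising `p`-subgroup normal in the point stabilizer -/
theorem noV (C : Ctx G Ω T a N F k) {p : ℕ} (hp : p.Prime)
    (h : ∃ V : Subgroup T, V ≤ stabilizer T a ∧ V ≠ ⊥ ∧ IsPGroup p V ∧
      (∀ g ∈ stabilizer T a, ∀ v ∈ V, g * v * g⁻¹ ∈ V) ∧ Subgroup.centralizer (V : Set T) ≤ V) : False := by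
  obtain ⟨V, hV1, -, hVp, hVn, hVc⟩ := h
  have := C.A.finT
  have : Fact p.Prime := ⟨hp⟩
  have : Group.IsNilpotent V := hVp.isNilpotent
  exact no_V (stabilizer T a) (N.subgroupOf T) V C.le' hV1 C.nrm' hVn C.simple' C.nsol' inferInstance hVc

/-- the kernel of the action on `N` of the point stabilizer of `T` -/
def cen (T : Subgroup G) (a : Ω) (N : Subgroup G) : Subgroup T where
  carrier := {g | g ∈ stabilizer T a ∧ ∀ x ∈ N, (g : G) * x = x * g}
  one_mem' := ⟨one_mem _, fun x _ => by simp⟩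
  mul_mem' := by
    rintro g h ⟨hg, hg'⟩ ⟨hh, hh'⟩
    refine ⟨mul_mem hg hh, fun x hx => ?_⟩
    rw [Subgroup.coe_mul, mul_assoc, hh' x hx, ← mul_assoc, hg' x hx, mul_assoc]
  inv_mem' := by
    rintro g ⟨hg, hg'⟩
    refine ⟨inv_mem hg, fun x hx => ?_⟩
    rw [Subgroup.coe_inv, inv_mul_eq_iff_eq_mul, ← mul_assoc, hg' x hx, mul_inv_cancel_right]

/-- the action of the point stabilizer on `N` -/
theorem exists_hom (C : Ctx G Ω T a N F k) : ∃ κ : stabilizer T a →* MulAut N,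
    ∀ (g : stabilizer T a) (x : N), ((κ g x : N) : G) = (g : T) * x * ((g : T) : G)⁻¹ := by
  let S := stabilizer T a
  have hmem : ∀ (g : S) (x : N), (((g : T) : G) * x * ((g : T) : G)⁻¹) ∈ N := fun g x => C.nrm _ g.2 x x.2
  have hmem' : ∀ (g : S) (x : N), ((((g : T) : G))⁻¹ * x * ((g : T) : G)) ∈ N := fun g x => by
    have := C.nrm (((g : T) : G))⁻¹ ((stabilizer G a).inv_mem g.2) x x.2
    rwa [inv_inv] at this
  let κ : S →* MulAut N :=
    { toFun := fun g =>
        { toFun := fun x => ⟨_, hmem g x⟩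
          invFun := fun x => ⟨_, hmem' g x⟩
          left_inv := fun x => Subtype.ext (by simp only; group)
          right_inv := fun x => Subtype.ext (by simp only; group)
          map_mul' := fun x y => Subtype.ext (by simp only [Subgroup.coe_mul]; group) }
      map_one' := by
        ext x
        change (((1 : S) : T) : G) * x * ((((1 : S) : T) : G))⁻¹ = x
        simp
      map_mul' := by
        intro g h
        ext x
        change (((g * h : S) : T) : G) * x * ((((g * h : S) : T) : G))⁻¹ =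
          (g : T) * ((h : T) * x * ((h : T) : G)⁻¹) * ((g : T) : G)⁻¹
        simp only [Subgroup.coe_mul, mul_inv_rev]
        group }
  exact ⟨κ, fun g x => rfl⟩

theorem card_mulAut (C : Ctx G Ω T a N F k) :
    Nat.card (MulAut N) = 2 * k * (2 ^ (3 * k) * ((2 ^ k) ^ 2 - 1) * ((2 ^ k) ^ 3 - 1)) := by
  obtain ⟨e⟩ := C.iso
  have : Fact (Nat.Prime 2) := ⟨Nat.prime_two⟩
  rw [Nat.card_congr (MulAut.congr e).toEquiv, Cfsg.Agent.S0813.result 2 k C.hk C.hF 3 (by norm_num) (by norm_num),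
    if_neg (by norm_num)]
  rw [card_pgl3 C.hF]

/-- elements of order prime to `|Aut N|` centralise `N` -/
theorem mem_cen_of_coprime (C : Ctx G Ω T a N F k) {g : T} (hg : g ∈ stabilizer T a)
    (ho : (orderOf g).Coprime (Nat.card (MulAut N))) : g ∈ cen T a N := by
  obtain ⟨κ, hκ⟩ := C.exists_hom
  have h1 : κ ⟨g, hg⟩ = 1 := by
    have h2 : orderOf (κ ⟨g, hg⟩) ∣ orderOf g := by
      have := orderOf_map_dvd κ (⟨g, hg⟩ : stabilizer T a)
      rwa [Subgroup.orderOf_mk] at this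
    have h3 : orderOf (κ ⟨g, hg⟩) ∣ Nat.card (MulAut N) := orderOf_dvd_natCard _
    have h4 := Nat.dvd_gcd h2 h3
    rw [ho, Nat.dvd_one, orderOf_eq_one_iff] at h4
    exact h4
  refine ⟨hg, fun x hx => ?_⟩
  have h2 := hκ ⟨g, hg⟩ ⟨x, hx⟩
  rw [h1] at h2
  have h3 : x = (g : G) * x * (g : G)⁻¹ := h2
  exact (eq_mul_inv_iff_mul_eq.1 h3).symm

/-- if the centralizer is trivial then the point stabilizer embeds in `Aut N` -/
theorem card_dvd_of_cen (C : Ctx G Ω T a N F k) (h : cen T a N = ⊥) :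
    Nat.card (stabilizer T a) ∣ 2 * k * (2 ^ (3 * k) * ((2 ^ k) ^ 2 - 1) * ((2 ^ k) ^ 3 - 1)) := by
  have := C.A.finG
  obtain ⟨κ, hκ⟩ := C.exists_hom
  rw [← C.card_mulAut]
  apply Subgroup.card_dvd_of_injective κ
  rw [injective_iff_map_eq_one]
  intro g hg
  have h1 : (g : T) ∈ cen T a N := by
    refine ⟨g.2, fun x hx => ?_⟩
    have h2 := hκ g ⟨x, hx⟩
    rw [hg] at h2
    have h3 : x = ((g : T) : G) * x * ((g : T) : G)⁻¹ := h2
    exact (eq_mul_inv_iff_mul_eq.1 h3).symm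
  rw [h, Subgroup.mem_bot] at h1
  exact Subtype.ext h1

end Ctx

end Cfsg.Agent.H175.TTPsl3AS
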