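import Cfsg.Agent.H175.TTPsl3Ctx
import Cfsg.Agent.Nodes.RGDClass

/-!
# S3727, the rows of the list (helper175)
-/

set_option autoImplicit false

namespace Cfsg.Agent.H175.TTPsl3AS

open MulAction Cfsg.Agent.H384.TwoTrans

universe u v

/-! ### The alternating groups -/

/-- the normal subgroups of a point stabilizer of the alternating group -/
theorem alt_lemma {X Ω : Type*} [Group X] [MulAction X Ω] [Fintype Ω] [DecidableEq Ω] [FaithfulSMul X Ω]
    (h : 2 * Nat.card X = (Nat.card Ω).factorial) (h6 : 6 ≤ Nat.card Ω) (a : Ω) (M : Subgroup X)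
    (hM : M ≤ stabilizer X a) (hMn : ∀ g ∈ stabilizer X a, ∀ x ∈ M, g * x * g⁻¹ ∈ M) (hM1 : M ≠ ⊥) :
    M = stabilizer X a := by
  have hnt : Nontrivial Ω := Finite.one_lt_card_iff_nontrivial.1 (by omega)
  have hinj : Function.Injective (toPermHom X Ω) := toPerm_injective
  have hfin : Finite X := by
    apply Nat.finite_of_card_ne_zero
    intro h0
    rw [h0, mul_zero] at h
    exact (Nat.factorial_ne_zero _) h.symm
  have hr : (toPermHom X Ω).range = alternatingGroup Ω := by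
    apply Equiv.Perm.eq_alternatingGroup_of_index_eq_two
    have h1 := (toPermHom X Ω).range.card_mul_index
    have h2 : Nat.card (toPermHom X Ω).range = Nat.card X := (Nat.card_congr (MonoidHom.ofInjective hinj).toEquiv).symm
    rw [h2, Nat.card_perm, ← h, mul_comm 2] at h1
    exact Nat.eq_of_mul_eq_mul_left Nat.card_pos h1
  -- the embedding
  have hψ : ∀ σ : alternatingGroup {x // x ≠ a}, ∃ t : X, toPermHom X Ω t = Equiv.Perm.ofSubtype (σ : Equiv.Perm {x // x ≠ a}) := by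
    intro σ
    have h1 : Equiv.Perm.ofSubtype (σ : Equiv.Perm {x // x ≠ a}) ∈ alternatingGroup Ω := by
      rw [Equiv.Perm.mem_alternatingGroup, Equiv.Perm.sign_ofSubtype]
      exact Equiv.Perm.mem_alternatingGroup.1 σ.2
    rw [← hr] at h1
    exact h1
  choose ψ hψ using hψ
  have hψm : ∀ σ τ, ψ (σ * τ) = ψ σ * ψ τ := by
    intro σ τ
    apply hinj
    rw [map_mul, hψ, hψ, hψ, ← map_mul]
    rfl
  have hψa : ∀ σ, ψ σ ∈ stabilizer X a := by
    intro σ
    have h1 : toPermHom X Ω (ψ σ) a = a := by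
      rw [hψ]
      exact Equiv.Perm.ofSubtype_apply_of_not_mem _ (by simp)
    exact h1
  have hsurj : ∀ t ∈ stabilizer X a, ∃ σ, ψ σ = t := by
    intro t ht
    have ht' : t • a = a := ht
    have h1 : ∀ x : Ω, toPermHom X Ω t x ≠ a ↔ x ≠ a := by
      intro x
      constructor
      · rintro h2 rfl
        exact h2 ht'
      · intro h2 h3
        exact h2 (smul_left_cancel t ((show t • x = a from h3).trans ht'.symm))
    let σ : Equiv.Perm {x // x ≠ a} := (toPermHom X Ω t).subtypePerm h1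
    have hsig : Equiv.Perm.sign σ = Equiv.Perm.sign (toPermHom X Ω t) := by
      apply Equiv.Perm.sign_subtypePerm
      intro x hx hxa
      apply hx
      rw [hxa]; exact ht'
    have hσ : σ ∈ alternatingGroup {x // x ≠ a} := by
      rw [Equiv.Perm.mem_alternatingGroup, hsig]
      apply Equiv.Perm.mem_alternatingGroup.1
      rw [← hr]
      exact ⟨t, rfl⟩
    refine ⟨⟨σ, hσ⟩, ?_⟩
    apply hinj
    rw [hψ]
    ext x
    by_cases hx : x = a
    · subst hx
      rw [Equiv.Perm.ofSubtype_apply_of_not_mem _ (by simp)]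
      exact ht'.symm
    · rw [Equiv.Perm.ofSubtype_apply_of_mem (p := fun x => x ≠ a) _ hx]
      rfl
  let Ψ : alternatingGroup {x // x ≠ a} →* X :=
    { toFun := ψ
      map_one' := by
        have h1 := hψm 1 1
        rw [mul_one] at h1
        exact (mul_eq_left.1 h1.symm)
      map_mul' := hψm }
  have hcard : 5 ≤ Nat.card {x : Ω // x ≠ a} := by
    rw [Nat.card_eq_fintype_card, Fintype.card_subtype_compl, Fintype.card_subtype_eq, ← Nat.card_eq_fintype_card]
    omega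
  have hs : IsSimpleGroup (alternatingGroup {x : Ω // x ≠ a}) := alternatingGroup.isSimpleGroup hcard
  have hn : (M.comap Ψ).Normal := by
    refine ⟨fun x hx g => ?_⟩
    change ψ (g * x * g⁻¹) ∈ M
    have h1 : ψ (g * x * g⁻¹) = ψ g * ψ x * (ψ g)⁻¹ := by
      rw [hψm, hψm]
      congr 1
      exact map_inv Ψ g
    rw [h1]
    exact hMn _ (hψa g) _ hx
  rcases hn.eq_bot_or_eq_top with h1 | h1
  · exfalso
    apply hM1
    rw [eq_bot_iff]
    intro x hx
    obtain ⟨σ, rfl⟩ := hsurj x (hM hx)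
    have h2 : σ ∈ M.comap Ψ := hx
    rw [h1, Subgroup.mem_bot] at h2
    rw [Subgroup.mem_bot, h2]
    exact map_one Ψ
  · apply le_antisymm hM
    intro x hx
    obtain ⟨σ, rfl⟩ := hsurj x hx
    have h2 : σ ∈ M.comap Ψ := by rw [h1]; trivial
    exact h2

theorem fact_gt {q : ℕ} (hq : 2 ≤ q) : 2 * q ^ 8 < (q ^ 2 + q + 1).factorial := by
  obtain ⟨x, hx⟩ : ∃ x, q ^ 2 + q + 1 = x + 4 := ⟨q ^ 2 + q - 3, by have : 4 ≤ q ^ 2 := Nat.pow_le_pow_left hq 2; omega⟩
  rw [hx, Nat.factorial_succ, Nat.factorial_succ, Nat.factorial_succ, Nat.factorial_succ]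
  have hx3 : 3 ≤ x := by have : 4 ≤ q ^ 2 := Nat.pow_le_pow_left hq 2; omega
  have h6 : 6 ≤ x.factorial := by
    calc 6 = (3 : ℕ).factorial := rfl
      _ ≤ x.factorial := Nat.factorial_le hx3
  have h1 : q ^ 2 ≤ x + 1 := by omega
  have h2 : q ^ 2 ≤ x + 2 := by omega
  have h3 : q ^ 2 ≤ x + 3 := by omega
  have h4 : q ^ 2 ≤ x + 4 := by omega
  have hpos : 0 < q ^ 8 := by positivity
  calc 2 * q ^ 8 < q ^ 2 * (q ^ 2 * (q ^ 2 * (q ^ 2 * 6))) := by
        have : q ^ 2 * (q ^ 2 * (q ^ 2 * (q ^ 2 * 6))) = 6 * q ^ 8 := by ring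
        omega
    _ ≤ (x + 3 + 1) * ((x + 2 + 1) * ((x + 1 + 1) * ((x + 1) * x.factorial))) :=
        Nat.mul_le_mul h4 (Nat.mul_le_mul h3 (Nat.mul_le_mul h2 (Nat.mul_le_mul h1 h6)))

variable {G : Type u} {Ω : Type v} [Group G] [MulAction G Ω] {T : Subgroup G} {a : Ω} {N : Subgroup G}
  {F : Type} [Field F] [Fintype F] {k : ℕ}

namespace Ctx

theorem card_N_le (C : Ctx G Ω T a N F k) : Nat.card N ≤ (2 ^ k) ^ 8 := by
  obtain ⟨e⟩ := C.iso
  have h := card_M C.hF e
  have h1 : Nat.card N ≤ Nat.gcd 3 (2 ^ k - 1) * Nat.card N := by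
    rcases gcd_three (x := 2 ^ k - 1) with h4 | h4 <;> rw [h4] <;> omega
  refine h1.trans ?_
  rw [h]
  calc 2 ^ (3 * k) * ((2 ^ k) ^ 2 - 1) * ((2 ^ k) ^ 3 - 1) ≤ 2 ^ (3 * k) * (2 ^ k) ^ 2 * (2 ^ k) ^ 3 :=
        Nat.mul_le_mul (Nat.mul_le_mul_left _ (Nat.sub_le _ _)) (Nat.sub_le _ _)
    _ = (2 ^ k) ^ 8 := by ring

theorem six_le (C : Ctx G Ω T a N F k) : 8 ≤ Nat.card Ω := by
  obtain ⟨f, -, h1, -, h7, -⟩ := C.orbits
  have := Nat.le_of_dvd (by have := C.A.five_le; omega) h1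
  omega

theorem row_alt (C : Ctx G Ω T a N F k) (h : 2 * Nat.card T = (Nat.card Ω).factorial) : False := by
  classical
  have := C.A.finG
  have := C.A.finΩ
  have := C.A.faithfulT
  have : Fintype Ω := Fintype.ofFinite Ω
  have h8 := C.six_le
  have hs := C.simple'
  have h1 := alt_lemma h (by omega) a (N.subgroupOf T) C.le' C.nrm' (by
    have : Nontrivial (N.subgroupOf T) := inferInstance
    rwa [Subgroup.nontrivial_iff_ne_bot] at this)
  have h2 := C.A.card_mul a
  rw [← h1, Nat.card_congr (Subgroup.subgroupOfEquivOfLe C.leT).toEquiv] at h2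
  -- `2 |N| = (n - 1)!`
  obtain ⟨j, hj⟩ : ∃ j, Nat.card Ω = j + 1 := ⟨Nat.card Ω - 1, by omega⟩
  have h3 : 2 * Nat.card N = j.factorial := by
    rw [← h2, hj, Nat.factorial_succ] at h
    have h4 : (j + 1) * (2 * Nat.card N) = (j + 1) * j.factorial := by rw [← h]; ring
    exact Nat.eq_of_mul_eq_mul_left (by omega) h4
  have h4 := Nat.le_of_dvd (by omega) C.dvd
  rw [hj, Nat.add_sub_cancel] at h4
  have h5 := Nat.factorial_le h4
  have h6 := fact_gt C.one_le_q
  have h7 := C.card_N_le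
  omega

/-- the rows `PSL_d(q)` -/
theorem row_psl (C : Ctx G Ω T a N F k) {F' : Type} [Field F'] [Fintype F'] (d : ℕ) (hd : 2 ≤ d)
    (hd2 : d = 2 → 4 ≤ Fintype.card F') (e : Nonempty (T ≃* Matrix.ProjectiveSpecialLinearGroup (Fin d) F'))
    (hn : Nat.card Ω * (Fintype.card F' - 1) = Fintype.card F' ^ d - 1) : False := by
  obtain ⟨p, hp⟩ := CharP.exists F'
  obtain ⟨n, hpp, hq⟩ := FiniteField.card F' p
  refine C.noV hpp (Cfsg.Agent.H57.TTPar.AS.over_sylow C.A hpp
    (Cfsg.Agent.Nodes.RGDClass.hasRGD_of_PSL ⟨F', inferInstance, inferInstance, hp, d, hd, hd2, e⟩) ?_ a)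
  intro h
  have h1 : p ∣ Fintype.card F' ^ d - 1 := by rw [← hn]; exact h.mul_right _
  have h2 : p ∣ Fintype.card F' ^ d := by
    rw [hq]
    exact (dvd_pow_self p n.ne_zero).trans (dvd_pow_self _ (by omega))
  have h3 := (Nat.dvd_sub_iff_right (Nat.one_le_pow _ _ Fintype.card_pos) h2).1 h1
  have := hpp.one_lt
  exact absurd (Nat.dvd_one.1 h3) (by omega)

/-- the rows `PSU_3(q)` -/
theorem row_psu (C : Ctx G Ω T a N F k) {F' : Type} [Field F'] [Fintype F'] {q : ℕ} (hq3 : 3 ≤ q)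
    (hF' : Fintype.card F' = q ^ 2) (e : Nonempty (T ≃* Cfsg.PSU 3 F' q)) (hn : Nat.card Ω = q ^ 3 + 1) : False := by
  obtain ⟨p, hp⟩ := CharP.exists F'
  obtain ⟨n, hpp, hq⟩ := FiniteField.card F' p
  refine C.noV hpp (Cfsg.Agent.H57.TTPar.AS.over_sylow C.A hpp
    (Cfsg.Agent.Nodes.RGDClass.hasRGD_of_PSU ⟨F', inferInstance, inferInstance, hp, 3, q, hF', le_rfl, by omega, e⟩) ?_ a)
  intro h
  have h1 : p ∣ q := by
    apply hpp.dvd_of_dvd_pow (n := 2)
    rw [← hF', hq]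
    exact dvd_pow_self p n.ne_zero
  rw [hn] at h
  have h2 := (Nat.dvd_add_right (h1.trans (dvd_pow_self q (by norm_num : 3 ≠ 0)))).1 h
  have := hpp.one_lt
  exact absurd (Nat.dvd_one.1 h2) (by omega)

theorem not_three_pow {k i : ℕ} (hk : 1 ≤ k) (h : (2 ^ k) ^ 2 + 2 ^ k + 1 = 3 ^ i) : False := by
  have h2 : 2 ≤ 2 ^ k := by
    calc 2 = 2 ^ 1 := rfl
      _ ≤ 2 ^ k := Nat.pow_le_pow_right (by norm_num) hk
  have hi : 2 ≤ i := by
    by_contra hcon
    have h3 : 3 ^ i ≤ 3 ^ 1 := Nat.pow_le_pow_right (by norm_num) (by omega)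
    have h4 : 4 ≤ (2 ^ k) ^ 2 := Nat.pow_le_pow_left h2 2
    omega
  have h9 : 9 ∣ (2 ^ k) ^ 2 + 2 ^ k + 1 := by
    rw [h]
    exact pow_dvd_pow 3 hi
  generalize 2 ^ k = q at h9
  have h5 := Nat.mod_lt q (show 0 < 9 by norm_num)
  have h6 : ((q % 9) ^ 2 + q % 9 + 1) % 9 = 0 := by
    rw [← Nat.mod_eq_zero_of_dvd h9]
    simp [Nat.pow_mod, Nat.add_mod]
  interval_cases (q % 9) <;> omega

/-- the rows `²G₂(q)` -/
theorem row_ree (C : Ctx G Ω T a N F k) {i : ℕ} (hn : Nat.card Ω = 3 ^ i + 1) : False := by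
  have h := C.dvd
  rw [hn, Nat.add_sub_cancel] at h
  obtain ⟨j, -, hj⟩ := (Nat.dvd_prime_pow Nat.prime_three).1 h
  exact not_three_pow C.hk hj

/-- an element of prime order centralising `N` -/
theorem prime_mul_le (C : Ctx G Ω T a N F k) {x : T} (hx : x ∈ cen T a N) {r : ℕ} (hr : r.Prime) (hxr : orderOf x = r)
    {s : ℕ} (hs : s ∣ (2 ^ k) ^ 2 + 2 ^ k + 1) (hrs : Nat.Coprime r s) : r * s ≤ Nat.card Ω - 1 := by
  have := C.A.finG
  have := C.A.finΩ
  have := C.A.faithfulT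
  obtain ⟨f, hf, -, -, -, hdf⟩ := C.orbits
  set S : Set Ω := {c | x • c ≠ c} with hS
  have haS : a ∉ S := fun h => h hx.1
  -- `f ∣ |S|`
  have h1 : f ∣ S.ncard := by
    refine Cfsg.Agent.H488.ThreeHalf.dvd_ncard_of_orbits N S ?_ ?_
    · intro g hg c hc h
      apply hc
      have h2 := hx.2 g hg
      have h3 : (x : G) • (g • c) = g • c := h
      rw [← mul_smul, h2, mul_smul] at h3
      exact smul_left_cancel g h3
    · intro c hc
      apply hf
      rintro rfl
      exact haS hc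
  have h2 : r ∣ S.ncard := by
    refine Cfsg.Agent.H488.ThreeHalf.dvd_ncard_of_orbits (Subgroup.zpowers x) S ?_ ?_
    · rintro _ ⟨z, rfl⟩ c hc h
      apply hc
      have h3 : x ^ z • (x • c) = x ^ z • c := by
        rw [← mul_smul, (Commute.refl x).zpow_left z, mul_smul]
        exact h
      exact smul_left_cancel _ h3
    · intro c hc
      have h3 : Nat.card (orbit (Subgroup.zpowers x) c) ∣ r := by
        rw [← hxr, ← Nat.card_zpowers]
        exact card_orbit_dvd_card _ c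
      rcases (Nat.dvd_prime hr).1 h3 with h4 | h4
      · exfalso
        rw [Nat.card_eq_one_iff_unique] at h4
        have := h4.1
        have h5 := Subsingleton.elim (⟨x • c, ⟨x, Subgroup.mem_zpowers x⟩, rfl⟩ : orbit (Subgroup.zpowers x) c)
          ⟨c, mem_orbit_self c⟩
        exact hc (congrArg Subtype.val h5)
      · exact h4
  have h3 : r * s ∣ S.ncard := hrs.mul_dvd_of_dvd_of_dvd h2 ((hs.trans hdf).trans h1)
  have h4 : 0 < S.ncard := by
    rw [Set.ncard_pos]
    by_contra hne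
    rw [Set.not_nonempty_iff_eq_empty] at hne
    have h5 : x = 1 := by
      apply FaithfulSMul.eq_of_smul_eq_smul (α := Ω)
      intro c
      rw [one_smul]
      by_contra hc
      have : c ∈ S := hc
      rw [hne] at this
      exact this
    rw [h5, orderOf_one] at hxr
    exact hr.one_lt.ne hxr
  refine (Nat.le_of_dvd h4 h3).trans ?_
  have h5 : S ⊆ {a}ᶜ := fun c hc h => haS (by rw [← show c = a from h]; exact hc)
  have h6 := Set.ncard_le_ncard h5 (Set.toFinite _)
  rwa [Set.ncard_compl, Set.ncard_singleton] at h6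

/-- `N ≅ PSL₃(2)`, the order of the stabilizer is divisible by 5: the degree is large -/
theorem five (C : Ctx G Ω T a N F 1) (h5 : 5 ∣ Nat.card (stabilizer T a)) : 35 ≤ Nat.card Ω - 1 := by
  have := C.A.finT
  have : Fact (Nat.Prime 5) := ⟨by norm_num⟩
  obtain ⟨x, hx⟩ := exists_prime_orderOf_dvd_card' 5 h5
  have hx' : orderOf (x : T) = 5 := by rw [Subgroup.orderOf_coe, hx]
  have h1 : (x : T) ∈ cen T a N := C.mem_cen_of_coprime x.2 (by
    rw [hx', C.card_mulAut]
    norm_num)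
  exact C.prime_mul_le h1 (by norm_num) hx' (s := 7) (by norm_num) (by norm_num)

theorem card_mod (C : Ctx G Ω T a N F k) : Nat.card (stabilizer T a) ∣ Nat.card (MulAut N) * Nat.card (cen T a N) := by
  have := C.A.finG
  obtain ⟨κ, hκ⟩ := C.exists_hom
  have h1 := κ.ker.card_mul_index
  rw [Subgroup.index_ker] at h1
  have h2 : Nat.card κ.ker ∣ Nat.card (cen T a N) := by
    have h3 : Nat.card (κ.ker.map (stabilizer T a).subtype) = Nat.card κ.ker :=
      (Nat.card_congr (κ.ker.equivMapOfInjective _ (stabilizer T a).subtype_injective).toEquiv).symm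
    rw [← h3]
    apply Subgroup.card_dvd_of_le
    rintro _ ⟨g, hg, rfl⟩
    refine ⟨g.2, fun x hx => ?_⟩
    have h4 := hκ g ⟨x, hx⟩
    rw [MonoidHom.mem_ker.1 hg] at h4
    have h5 : x = ((g : T) : G) * x * ((g : T) : G)⁻¹ := h4
    exact (eq_mul_inv_iff_mul_eq.1 h5).symm
  rw [← h1, mul_comm]
  exact Nat.mul_dvd_mul (Subgroup.card_subgroup_dvd_card _) h2

end Ctx

end Cfsg.Agent.H175.TTPsl3AS
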